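import Mathlib
import Cfsg.Agent.Lib.BG.Sec14b
import Cfsg.Agent.Lib.BG.Sec14c
import Cfsg.Agent.Lib.BG.Sec15b
import Cfsg.Agent.Lib.BG.S16_1
import Cfsg.Agent.Lib.Frob.Basic

/-!
Bender-Glauberman, section 16: the parts of the summary Theorems A - E that are not literal restatements of
earlier results.
-/

set_option autoImplicit false

namespace CfsgLib.BG

open Cfsg CfsgLib.PF Subgroup

variable {G : Type*} [Group G] [Finite G]

namespace S16A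

variable {M U K Ks Ms L E : Subgroup G}

omit [Finite G] in
/-- a set normalized by `M` whose elements are only fused inside `M` is a TI-subset -/
theorem isTISubset_of_fusion {A : Set G} (hn : ∀ m ∈ M, ∀ a ∈ A, m * a * m⁻¹ ∈ A)
    (h : ∀ g : G, ∀ a ∈ A, a ≠ 1 → g * a * g⁻¹ ∈ A → g ∈ M) : IsTISubset A := by
  intro g hg a ha hga
  by_contra h1
  refine hg (mem_set_normalizer_iff.2 fun b => ⟨hn g (h g a ha h1 hga) b, fun hb => ?_⟩)
  simpa [mul_assoc] using hn g⁻¹ (inv_mem (h g a ha h1 hga)) _ hb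

omit [Finite G] in
/-- the complement of a Frobenius group in the frozen sense -/
theorem frobeniusComplement_of_frob (h : Frob K E M) : IsFrobeniusComplement (E.subgroupOf M) := by
  have hE := S16.sd_right h.1
  refine CfsgLib.Frob.isFrobeniusComplement_iff.2 ⟨?_, ?_, fun g x hx hx1 hg => ?_⟩
  · rw [Ne, subgroupOf_eq_bot, disjoint_iff, inf_eq_left.2 hE]; exact h.2.2.1
  · rw [Ne, subgroupOf_eq_top]
    intro hM
    exact h.2.1 (by rw [← S16.sd_inf h.1, inf_eq_left.2 ((S16.sd_left h.1).trans hM)])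
  · rw [mem_subgroupOf] at hx hg ⊢
    obtain ⟨k, hk, e, he, hg'⟩ := h.1.1.2.2.2 g g.2
    have hx1' : (x : G) ≠ 1 := fun e => hx1 (Subtype.ext e)
    have hy : e * x * e⁻¹ ∈ E := E.mul_mem (E.mul_mem he hx) (E.inv_mem he)
    have hg2 : k * (e * x * e⁻¹) * k⁻¹ ∈ E := by
      have : ((g * x * g⁻¹ : M) : G) = k * (e * x * e⁻¹) * k⁻¹ := by
        simp only [coe_mul, InvMemClass.coe_inv, hg']; group
      rwa [this] at hg
    have h3 : k * ((e * x * e⁻¹) * k⁻¹ * (e * x * e⁻¹)⁻¹) ∈ K ⊓ E := by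
      refine ⟨K.mul_mem hk (conj_mem_of_mem_norm (h.1.2 (hE hy)) (K.inv_mem hk)), ?_⟩
      have := E.mul_mem hg2 (E.inv_mem hy)
      rwa [show k * (e * x * e⁻¹) * k⁻¹ * (e * x * e⁻¹)⁻¹ =
        k * ((e * x * e⁻¹) * k⁻¹ * (e * x * e⁻¹)⁻¹) by group] at this
    rw [S16.sd_inf h.1, mem_bot] at h3
    have h4 : k ∈ K ⊓ 𝒞[e * x * e⁻¹] := by
      refine ⟨hk, mem_cent1.2 ?_⟩
      calc k * (e * x * e⁻¹) = k * ((e * x * e⁻¹) * k⁻¹ * (e * x * e⁻¹)⁻¹) * (e * x * e⁻¹ * k) := by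
            group
        _ = e * x * e⁻¹ * k := by rw [h3, one_mul]
    rw [h.2.2.2 _ hy (S16.conj_ne_one hx1' e), mem_bot] at h4
    rw [hg', h4, one_mul]; exact he

/-- the image of `M'` in Mathlib's quotient `M / M_F` -/
theorem nil_der1_quo (h : Group.IsNilpotent (⁅M, M⁆ ⧸⧸ fittingHallOf M)) :
    Group.IsNilpotent ↥((commutator ↥M).map (QuotientGroup.mk' (fittingHall ↥M))) := by
  have e := mimEquivMim (cosHom (fittingHallOf M)) (QuotientGroup.mk' (fittingHall ↥M))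
    (H := ⁅M, M⁆) ((der_sub M).trans (Fcore_normal M).2) (der_sub M)
    (by rw [mker_cosHom, mker, QuotientGroup.ker_mk']; rfl)
  have e2 : (⁅M, M⁆ : Subgroup G).subgroupOf M = commutator M := by
    rw [← map_subtype_commutator, subgroupOf, comap_map_eq_self_of_injective M.subtype_injective]
  have := Group.nilpotent_of_mulEquiv e
  rwa [mim, e2] at this

variable (hG : IsMinSimpleOddOrder G)
include hG

omit hG in
theorem pdata (hM : IsCoatom M) (h : KappaCompl M U K) (hK : K ≠ ⊥) :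
    PData M K (sigmaCore M ⊓ 𝒞(K)) := ⟨(ntrivg_kappa hM h.hallK).1 hK, h.hallK, rfl⟩

/-- `U M_σ` is a normal Hall `κ(M)'`-subgroup -/
theorem hall_sigma_U (hM : IsCoatom M) (h : KappaCompl M U K) :
    IsPiHallOf (kappa M)ᶜ (U ⊔ sigmaCore M) M ∧ M ≤ 𝒩(U ⊔ sigmaCore M) := by
  have hs := (kappa_structure_a hG hM h).2.1
  rw [sup_comm]
  exact ⟨S15.compl_Hall_left hs.1 h.hallK, hs.2⟩

theorem Fitting_TI (hM : IsCoatom M) (h : ¬ ((MtypeF M ∨ MtypeP1 M) ∧ fittingHallOf M = sigmaCore M)) :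
    IsTISubset (fittingOf M : Set G) := by
  rcases Fitting_normedTI_or hG hM with h1 | ⟨g, hg, h1⟩
  · refine (normedTI_sharp_iff (Fitting_sub M) (mmax_normal hG hM (Fitting_normal M) ?_)).1 h1
    exact subG1_contra (Fcore_sub_Fitting M) (Fcore_neq1 hG hM)
  · exact absurd (nonTI_Fitting_structure hG hM hg rfl h1).1 h

/-- Theorem A(8) -/
theorem summaryA8 (hM : IsCoatom M) (h : KappaCompl M U K) (hne : fittingHallOf M ≠ sigmaCore M) :
    U = ⊥ ∧ IsTISubset (fittingOf M : Set G) ∧ (Nat.card K).Prime := by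
  obtain ⟨D, hD⟩ := Hall_exists {Nat.card ↥(sigmaCore M ⊓ 𝒞(K))}ᶜ
    (sub_mmax_sol hG hM (pcore_sub (sigma M) M))
  obtain ⟨⟨h1, -⟩, ⟨h2, -⟩, -⟩ := Fcore_structure hG hM h.hallK hne rfl rfl rfl rfl hD rfl
  exact ⟨(trivg_kappa_compl hG hM h).2 h1, Fitting_TI hG hM fun h' => hne h'.2, h2⟩

/-- the `σ(M)'`-part of an element of `A(M) - M_σ` determines `M` -/
theorem uniq_of_mem_A (hM : IsCoatom M) (h : KappaCompl M U K) {a : G}
    (ha : a ∈ sigmaA M U \ (sigmaCore M : Set G)) :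
    piPart (sigma M)ᶜ a ≠ 1 ∧ UniqMax 𝒞[piPart (sigma M)ᶜ a] M := by
  obtain ⟨⟨⟨haM, y, hy, hy1, hay⟩, haU⟩, haσ⟩ := ha
  have h1 : piPart (sigma M)ᶜ a ≠ 1 := fun e =>
    haσ ((K14.k_mem_Msigma_iff hG hM haM).2 (piPart_compl_eq_one_iff.1 e))
  refine ⟨h1, ?_⟩
  rcases pi_of_cent_sigma' hG hM hy hy1 ⟨piPart_mem _ haM, piPart_mem _ (mem_cent1.2 hay)⟩ h1
    (piElt_piPart _ a) with ⟨hk, -⟩ | ⟨-, -, hu⟩
  · exact absurd (hk.eq_one (mem_p_elt (pHall_pgroup (hall_sigma_U hG hM h).1) (piPart_mem _ haU))) h1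
  · exact hu

omit hG [Finite G] in
theorem sigmaHat_conj {m a : G} (hm : m ∈ M) (ha : a ∈ sigmaHat M) : m * a * m⁻¹ ∈ sigmaHat M := by
  obtain ⟨haM, y, hy, hy1, hay⟩ := ha
  refine ⟨M.mul_mem (M.mul_mem hm haM) (M.inv_mem hm), m * y * m⁻¹,
    conj_mem_of_mem_norm (pcore_norm _ M hm) hy, S16.conj_ne_one hy1 m, ?_⟩
  calc m * a * m⁻¹ * (m * y * m⁻¹) = m * (a * y) * m⁻¹ := by group
    _ = m * y * m⁻¹ * (m * a * m⁻¹) := by rw [hay]; group

/-- Theorem B(5) -/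
theorem summaryB5 (hM : IsCoatom M) (h : KappaCompl M U K) :
    IsTISubset (sigmaA M U \ (sigmaCore M : Set G)) := by
  refine isTISubset_of_fusion (M := M) (fun m hm a ha => ⟨⟨sigmaHat_conj hm ha.1.1,
    conj_mem_of_mem_norm ((hall_sigma_U hG hM h).2 hm) ha.1.2⟩, fun h' => ha.2 ?_⟩)
    fun g a ha _ hga => ?_
  · simpa [mul_assoc] using conj_mem_of_mem_norm' (K14.k_Msigma_norm M hm) h'
  · have h1 := (uniq_of_mem_A hG hM h ha).2.cj g
    have h2 := (uniq_of_mem_A hG hM h hga).2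
    rw [piPart_conj, ← cj_cent1] at h2
    exact (mmax_cj_eq_iff hG hM).1 (h1.unique h2)

/-- Theorem C(1) -/
theorem summaryC1 (hM : IsCoatom M) (h : KappaCompl M U K) (hK : K ≠ ⊥) : ¬ 𝒩(U) ≤ M := by
  intro hn
  by_cases hU : U = ⊥
  · rw [hU, norm_bot] at hn
    exact hM.1 (top_le_iff.1 hn)
  have hP : MtypeP M := (ntrivg_kappa hM h.hallK).1 hK
  have h2 : MtypeP2 M := hP.p1_or_p2.resolve_left fun h1 => hU ((trivg_kappa_compl hG hM h).2 h1)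
  obtain ⟨r, hr, hrU⟩ := exists_prime_dvd_card hU
  obtain ⟨R, hR⟩ := Sylow_exists hr U
  obtain ⟨Ms, hMs, hKMs⟩ := mmax_exists (mFT_cent_proper hG hK)
  obtain ⟨H, hH, hRH⟩ := mmax_exists (mFT_norm_proper hG (Sylow_ne_bot hr hR hrU)
    (mFT_pgroup_proper hG (pHall_pgroup hR)))
  exact (P2type_signalizer hG hr h2 h hMs hKMs hR hH hRH).2.2.2.1 (inf_le_right.trans hn)

/-- a maximal subgroup with the two defining properties of the partner -/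
theorem partner_data (h : PData M K Ks) (hL : IsCoatom L) (e : K = sigmaCore L ⊓ 𝒞(Ks))
    (hH : IsPiHallOf (kappa L) Ks L) : PData L Ks K :=
  ⟨(ntrivg_kappa hL hH).1 (h.Ks_ne_bot hG), hH, e⟩

theorem partner_unique (h : PData M K Ks) (h1 : PData L Ks K) (h2 : PData Ms Ks K) : L = Ms := by
  obtain ⟨X, hX, hp⟩ := exists_prime_order_subgroup h.K_ne_bot
  exact (h1.uniq_cent hG hX hp).unique (h2.uniq_cent hG hX hp)

/-- the conclusions of 14.7 for a given partner -/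
theorem partner_facts (h : PData M K Ks) (h1 : PData L Ks K) :
    ¬ IsConjSub M L ∧ IsCyclic ↥(K ⊔ Ks) ∧ M ⊓ L = K ⊔ Ks ∧
      ((MtypeP2 M ∧ (Nat.card K).Prime) ∨ (MtypeP2 L ∧ (Nat.card Ks).Prime)) := by
  obtain ⟨Ms, hMs, a1, -, ⟨a2, -⟩, ⟨a3, -⟩, ⟨a4, a5, -⟩, -, a6, -⟩ :=
    Ptype_embedding hG h.typeP h.hall h.eq
  rw [partner_unique hG h h1 ⟨hMs, a2, a3.symm⟩]
  exact ⟨a1, a4, a5, a6⟩

theorem Z_cyclic (h : PData M K Ks) : IsCyclic ↥(K ⊔ Ks) := by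
  obtain ⟨Ms, -, h1, -⟩ := h.exists_partner hG
  exact (partner_facts hG h h1).2.1

theorem zHat_nonempty (h : PData M K Ks) : (zHat K Ks).Nonempty := by
  obtain ⟨a, ha, ha1⟩ := exists_ne_one_of_ne_bot h.K_ne_bot
  obtain ⟨b, hb, hb1⟩ := exists_ne_one_of_ne_bot (h.Ks_ne_bot hG)
  exact ⟨_, h.mul_mem_zHat ha ha1 hb hb1⟩

/-- Theorem C(9), first assertion -/
theorem summaryC9_eq (hM : IsCoatom M) (h : KappaCompl M U K) (hK : K ≠ ⊥) :
    conjSupp (zHat K (sigmaCore M ⊓ 𝒞(K))) M = sigmaA0 M K \ sigmaA M U := by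
  have hd := pdata hM h hK
  obtain ⟨hUH, hUn⟩ := hall_sigma_U hG hM h
  have hκ : IsPiSubgroup (kappa M) K := pHall_pgroup h.hallK
  have hσκ : ∀ y ∈ sigmaCore M, IsPiElt (kappa M)ᶜ y := fun y hy =>
    (mem_p_elt (pcore_pgroup _ _) hy).mono fun p _ hp hk => kappa_sigma' hk hp
  ext a
  constructor
  · rintro ⟨z, hz, m, hm, rfl⟩
    obtain ⟨k, hk, y, hy, hk1, hy1, -, -, rfl⟩ := hd.decomp_zHat hz
    have hc : Commute k y := mem_cent_iff.1 hy.2 k hk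
    have e1 : piPart (kappa M) (k * y) = k :=
      piPart_mul_of_commute hc (mem_p_elt hκ hk) (hσκ y hy.1)
    have hzM : k * y ∈ M := hd.Z_le (mem_zHat.1 hz).1
    refine ⟨⟨sigmaHat_conj hm ⟨hzM, y, hy.1, hy1, by rw [← mul_assoc, ← hc.eq]⟩, ?_⟩,
      fun ha => ?_⟩
    · rintro ⟨k', hk', -, m', -, e⟩
      have h1 : IsPiElt (kappa M) (k * y) := by
        rw [← isPiElt_conj (g := m), e, isPiElt_conj]; exact mem_p_elt hκ hk'
      rw [piPart_of_piElt h1] at e1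
      exact hy1 (by simpa using e1)
    · have h1 : IsPiElt (kappa M)ᶜ (k * y) := by
        rw [← isPiElt_conj (g := m)]; exact mem_p_elt (pHall_pgroup hUH) ha.2
      rw [piPart_eq_one h1] at e1
      exact hk1 e1.symm
  · rintro ⟨⟨haH, ha0⟩, haA⟩
    have haM : a ∈ M := haH.1
    have hk1 : piPart (kappa M) a ≠ 1 := fun e =>
      haA ⟨haH, (mem_normal_Hall hUH hUn haM).2 (piPart_eq_one_iff.1 e)⟩
    obtain ⟨m, hm, hmK⟩ := Hall_Jmem (mmax_sol hG hM) h.hallK (piPart_mem _ haM)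
      (piElt_piPart (kappa M) a)
    rw [← piPart_conj] at hmK
    have hk1' : piPart (kappa M) (m * a * m⁻¹) ≠ 1 := by
      rw [piPart_conj]; exact S16.conj_ne_one hk1 m
    have hZ : m * a * m⁻¹ ∈ K ⊔ (sigmaCore M ⊓ 𝒞(K)) := by
      rw [← hd.cent1_eq hG (Z_cyclic hG hd) hmK hk1']
      exact ⟨M.mul_mem (M.mul_mem hm haM) (M.inv_mem hm), cent1_le_cent1_piPart _ _ (cent1id _)⟩
    refine ⟨m * a * m⁻¹, mem_zHat.2 ⟨hZ, fun h1 => ha0 ⟨_, h1, fun e => hk1' ?_, m⁻¹, M.inv_mem hm,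
      by group⟩, fun h1 => hk1' (piPart_eq_one (hσκ _ h1.1))⟩, m⁻¹, M.inv_mem hm, by group⟩
    rw [e]; exact piPart_eq_one (p_elt1 _)

/-- the `M`-conjugates of `Ẑ` form a TI-subset -/
theorem conjSupp_zHat_TI (h : PData M K Ks) : IsTISubset (conjSupp (zHat K Ks) M) := by
  refine isTISubset_of_fusion (M := M) ?_ ?_
  · rintro m hm _ ⟨z, hz, n, hn, rfl⟩
    exact ⟨z, hz, m * n, M.mul_mem hm hn, by group⟩
  · rintro g _ ⟨z, hz, n, hn, rfl⟩ - ⟨z', hz', n', hn', e⟩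
    have h1 : n'⁻¹ * g * n ∈ M := by
      refine h.Z_le (h.zHat_ti hG hz ?_)
      rw [show n'⁻¹ * g * n * z * (n'⁻¹ * g * n)⁻¹ = n'⁻¹ * (g * (n * z * n⁻¹) * g⁻¹) * n' by group, e,
        show n'⁻¹ * (n' * z' * n'⁻¹) * n' = z' by group]
      exact (mem_zHat.1 hz').1
    have := M.mul_mem (M.mul_mem hn' h1) (M.inv_mem hn)
    rwa [show n' * (n'⁻¹ * g * n) * n⁻¹ = g by group] at this

/-- Theorem C(10) -/
theorem summaryC10 (hM : IsCoatom M) (h : KappaCompl M U K) (hK : K ≠ ⊥) (hU : U ≠ ⊥) :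
    (Nat.card K).Prime ∧ IsTISubset (fittingOf M : Set G) ∧ sigmaCore M ≤ fittingOf M := by
  have hP : MtypeP M := (ntrivg_kappa hM h.hallK).1 hK
  have h2 : MtypeP2 M := hP.p1_or_p2.resolve_left fun h1 => hU ((trivg_kappa_compl hG hM h).2 h1)
  refine ⟨(Ptype_structure_g hG h2 h.hallK).2.1, Fitting_TI hG hM fun h' => ?_,
    Fitting_max (pcore_normal _ M) (notP1type_Msigma_nil hG (Or.inr h2))⟩
  rcases h'.1 with h1 | h1
  · exact h1.not_typeP hP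
  · exact h1.not_p2 h2

/-- Theorem C(11) -/
theorem summaryC11 (hM : IsCoatom M) (h : KappaCompl M U K) (hK : K ≠ ⊥) (hU : U = ⊥) :
    (Nat.card ↥(sigmaCore M ⊓ 𝒞(K))).Prime := by
  have hd := pdata hM h hK
  obtain ⟨Ms, -, h1, -⟩ := hd.exists_partner hG
  rcases (partner_facts hG hd h1).2.2.2 with h2 | h2
  · exact absurd h2.1 ((trivg_kappa_compl hG hM h).1 hU).not_p2
  · exact h2.2

theorem cj_mem_sigmaMmax (hM : IsCoatom M) {x g : G} (hx : x ∈ sigmaCore M) (hg : x ∈ cj g M) :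
    cj g M ∈ sigmaMmax x := by
  refine ⟨mmax_cj hM g, (K14.k_mem_Msigma_iff hG (mmax_cj hM g) hg).2 ?_⟩
  rw [K14.k_sigmaJ]; exact mem_p_elt (pcore_pgroup _ _) hx

/-- `C_G(x) = R(x) ⋊ C_M(x)` -/
theorem sdprod_sigR (hM : IsCoatom M) {x : G} (hx : x ∈ sigmaCore M) (hx1 : x ≠ 1) :
    SDProd (sigR x) (M ⊓ 𝒞[x]) 𝒞[x] := by
  by_cases hC : 𝒞[x] ≤ M
  · rw [sigR_of_not_lt fun h' => (sigma_mmax_gt1_iff hG hx1 ⟨hM, hx⟩).1 h' hC, inf_eq_right.2 hC]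
    exact S16.sd_intro' (by rw [norm_bot]; exact le_top) (bot_inf_eq _) (bot_sup_eq _)
  · obtain ⟨h1, -, -, -, h2⟩ :=
      FT_signalizer_context hG hx1 ((sigma_mmax_gt1_iff hG hx1 ⟨hM, hx⟩).2 hC)
    have := (h2 M ⟨hM, hx⟩).1
    rwa [inf_assoc, inf_eq_right.2 h1.le] at this

/-- Theorem D(3) -/
theorem summaryD3 (hM : IsCoatom M) {x : G} (hx : x ∈ sigmaCore M) (hx1 : x ≠ 1) :
    (Nat.card ↥(M ⊓ 𝒞[x])).Coprime ((M ⊓ 𝒞[x]).relIndex 𝒞[x]) ∧ 𝒞[x] ≤ 𝒩(sigR x) ∧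
      IsComplIn (M ⊓ 𝒞[x]) (sigR x) 𝒞[x] ∧
      ∀ g : G, x ∈ cj g M → ∃! r : G, r ∈ sigR x ∧ cj r M = cj g M := by
  have hs := sdprod_sigR hG hM hx hx1
  obtain ⟨h1, -, -, h2⟩ := FT_signalizer_trans hG (Msigma_ell1 hM hx hx1)
  refine ⟨?_, hs.2, S16.compl_symm hs.1, fun g hg => ?_⟩
  · rw [S16.sd_relIndex' hs]; exact (S16.sd_coprime hs h2).symm
  · simpa only [eq_comm] using h1 M ⟨hM, hx⟩ _ (cj_mem_sigmaMmax hG hM hx hg)

/-- Theorem D(4), the part valid for all types -/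
theorem summaryD4 (hM : IsCoatom M) {x : G} (hx : x ∈ sigmaCore M) (hx1 : x ≠ 1) (hC : ¬ 𝒞[x] ≤ M) :
    UniqMax 𝒞[x] (sigN x) ∧ sigmaCore (sigN x) = fittingHallOf (sigN x) ∧
      IsComplIn (M ⊓ sigN x) (sigmaCore (sigN x)) (sigN x) ∧
      ∀ K' U' : Subgroup G, KappaCompl (sigN x) U' K' →
        U' ≠ ⊥ ∧ x ∈ sigmaA (sigN x) U' ∧ x ∉ sigmaCore (sigN x) := by
  obtain ⟨h1, h2, h3, h4, h5⟩ :=
    FT_signalizer_context hG hx1 ((sigma_mmax_gt1_iff hG hx1 ⟨hM, hx⟩).2 hC)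
  have hN := h1.coatom
  have hxN : x ∈ sigN x := h1.le (cent1id x)
  refine ⟨h1, ((Fcore_eq_Msigma hG hN).2 (notP1type_Msigma_nil hG h4)).symm,
    (sigma_compl_iff hG hN).2 (h5 M ⟨hM, hx⟩).2.2.2, fun K' U' h => ⟨fun hU => ?_, ⟨⟨hxN, ?_⟩, ?_⟩,
      fun h' => hx1 ?_⟩⟩
  · have := (trivg_kappa_compl hG hN h).1 hU
    rcases h4 with h4 | h4
    · exact h4.not_typeP this.1
    · exact this.not_p2 h4
  · obtain ⟨r, hr, hr1⟩ := exists_ne_one_of_ne_bot h2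
    exact ⟨r, hr.1, hr1, (mem_cent1.1 hr.2).symm⟩
  · obtain ⟨a, b⟩ := hall_sigma_U hG hN h
    exact (mem_normal_Hall a b hxN).2 (h3.mono fun p _ hp hk => K14.k_kappa_not_tau2 hG hN hk hp)
  · exact (mem_p_elt (pcore_pgroup _ _) h').eq_one (h3.mono fun p _ hp => hp.2.1)

/-- Theorem D(4), when the signalizer base is of type `𝓟` -/
theorem summaryD4P (hM : IsCoatom M) {x : G} (hx : x ∈ sigmaCore M) (hx1 : x ≠ 1) (hC : ¬ 𝒞[x] ≤ M)
    (hN : MtypeP (sigN x)) :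
    MtypeF M ∧ (∃ E : Subgroup G, Frob (sigmaCore M) E M ∧ IsCyclic E) ∧
      ¬ IsTISubset (fittingHallOf M : Set G) := by
  obtain ⟨h1, -, E, -, h2, h3⟩ := nonFtype_signalizer_base hG hM hx hx1 hC fun h => h.not_typeP hN
  refine ⟨h1, ⟨E, h3, h2⟩, fun h => ?_⟩
  rw [(Fcore_eq_Msigma hG hM).2 (notP1type_Msigma_nil hG (Or.inl h1))] at h
  obtain ⟨g, hg, hgM⟩ := SetLike.not_le_iff_exists.1 hC
  refine hx1 (h g (by rwa [norm_Msigma hG hM]) x hx ?_)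
  rw [mem_cent1.1 hg]; simpa using hx

end S16A

end CfsgLib.BG
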