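import Mathlib
import Cfsg.Agent.Lib.BG.S7_4
import Cfsg.Agent.Lib.BG.S7_5

/-!
Bridges between the frozen transitivity hypothesis and `NormedConstrained`.
-/

set_option autoImplicit false

namespace CfsgLib.BG

open Cfsg Subgroup

variable {G : Type*} [Group G] [Finite G]

omit [Finite G] in
theorem normedConstrained_of_transHyp {A : Subgroup G} (h : TransitivityHypothesis A) :
    NormedConstrained (primesNotDvd (Nat.card A))ᶜ A := by
  refine ⟨fun p hp => ?_, h.1, h.2.1, fun X Y hAX hX hYX hY hn => ?_⟩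
  · simp [mem_primesNotDvd, hp]
  · rw [compl_compl] at hY ⊢
    rw [← h.2.2 X hX hAX]
    exact le_sSup ⟨hYX, hY, hn⟩

theorem transHyp_of_normedConstrained {π : Set ℕ} {A : Subgroup G} (h : NormedConstrained π A) :
    TransitivityHypothesis A := by
  have e : ∀ p : ℕ, p.Prime → (p ∈ πᶜ ↔ p ∈ primesNotDvd (Nat.card A)) := fun p hp => by
    simp [mem_primesNotDvd, hp, h.pi_eq p hp]
  refine ⟨h.ne_bot, h.ne_top, fun X hX hAX => le_antisymm (sSup_le ?_) (le_sSup ?_)⟩
  · rintro Y ⟨h1, h2, h3⟩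
    rw [← pcore_congr e]
    exact h.le_core X Y hAX hX h1 ((pigroup_congr e).2 h2) h3
  · exact ⟨pcore_sub _ _, pcore_pgroup _ _, norms_pcore _ (norm_of_le hAX)⟩

theorem s7_le_rank_of_not_pRankLE {p n : ℕ} (hp : p.Prime) {H : Subgroup G} (h : ¬ PRankLE p n H) :
    n + 1 ≤ rank H := by
  have := Fact.mk hp
  simp only [PRankLE, not_forall, not_le] at h
  obtain ⟨A, hab, hA, hlt⟩ := h
  have hpA : IsPGroup p A := fun a => ⟨1, by
    rw [pow_one]; exact Subtype.ext (hA a a.2)⟩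
  obtain ⟨k, hk⟩ := hpA.exists_card_eq
  have hkn : n + 1 ≤ k := by
    rw [hk] at hlt; exact (Nat.pow_lt_pow_iff_right hp.one_lt).1 hlt
  have hbdd : BddAbove {m : ℕ | ∃ (p : ℕ) (A : Subgroup G), p.Prime ∧ PnElem p m H A} := by
    refine ⟨Nat.card G, ?_⟩
    rintro m ⟨p, A, hp, hA⟩
    exact ((Nat.lt_pow_self hp.one_lt).le.trans (hA.2.2 ▸ Nat.card_le_card_of_injective _
      Subtype.val_injective))
  refine hkn.trans (le_csSup hbdd ⟨p, A.map H.subtype, hp, map_subtype_le _, ⟨inferInstance, ?_⟩, ?_⟩)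
  · rintro _ ⟨a, ha, rfl⟩
    exact congrArg Subtype.val (hA a ha)
  · rw [card_map_of_injective H.subtype_injective, hk]

theorem s7_le_rank_of_not_rankLE {n : ℕ} {H : Subgroup G} (h : ¬ RankLE n H) : n + 1 ≤ rank H := by
  by_contra h0
  exact h fun p hp => by
    by_contra h1
    exact h0 (s7_le_rank_of_not_pRankLE hp h1)

end CfsgLib.BG
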